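/-
Project L10, part Q: the linear algebra of the minimal configuration.
-/
import Cfsg.Agent.L10.DQ
import Cfsg.Agent.Odd.RelBasic

set_option autoImplicit false
set_option linter.unusedSectionVars false

namespace CL.L10

open Cfsg CL.Cls CL.Grp CL.Odd QuadraticMap

namespace Laq

variable {V : Type} [AddCommGroup V] [Module F V] [Finite V] {q : QuadraticForm F V}

theorem aa {W : Type} [AddCommGroup W] [Module F W] (v : W) : v + v = 0 := by
  rw [← two_smul F, show (2 : F) = 0 from rfl, zero_smul]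

theorem sub_eq (v w : V) : v - w = v + w := by rw [sub_eq_add_neg, neg_eq_of_add_eq_zero_left (aa w)]

theorem card_lin {W : Type} [AddCommGroup W] [Module F W] (f : V →ₗ[F] W) :
    Nat.card V = Nat.card (LinearMap.ker f) * Nat.card (LinearMap.range f) := by
  rw [Submodule.card_eq_card_quotient_mul_card (LinearMap.ker f), Nat.card_congr f.quotKerEquivRange.toEquiv]

theorem card_le {A B : Submodule F V} (h : A ≤ B) : Nat.card A ≤ Nat.card B :=
  Nat.card_le_card_of_injective _ (Submodule.inclusion_injective h)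

/-- a vector that is fixed modulo `D` -/
theorem fixed {P : Subgroup (OG q)} (hP : IsPGroup 2 P) {D Y : Submodule F V} (hD : ∀ p ∈ P, ∀ v ∈ D, p.1 v ∈ D)
    (hY : ∀ p ∈ P, ∀ v ∈ Y, p.1 v ∈ Y) (h : ¬ Y ≤ D) : ∃ v ∈ Y, v ∉ D ∧ ∀ p ∈ P, v + p.1 v ∈ D := by
  have := Fact.mk Nat.prime_two
  let f : P → (V ⧸ D →ₗ[F] V ⧸ D) := fun p => D.mapQ D p.1.1.toLinearMap (hD p p.2)
  let _ : MulAction P (Y.map D.mkQ) :=
    { smul := fun p x => ⟨f p x, by
        obtain ⟨_, v, hv, rfl⟩ := x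
        exact ⟨p.1.1 v, hY p p.2 v hv, rfl⟩⟩
      one_smul := by rintro ⟨_, v, hv, rfl⟩; rfl
      mul_smul := by rintro a b ⟨_, v, hv, rfl⟩; rfl }
  have : Finite (V ⧸ D) := Finite.of_surjective _ D.mkQ_surjective
  obtain ⟨v, hv, h1⟩ := SetLike.not_le_iff_exists.1 h
  have h2 : addOrderOf (⟨D.mkQ v, v, hv, rfl⟩ : Y.map D.mkQ) = 2 := addOrderOf_eq_prime (by rw [two_nsmul, aa])
    fun e => h1 ((Submodule.Quotient.mk_eq_zero D).1 (congrArg Subtype.val e))
  obtain ⟨⟨_, w, hw, rfl⟩, h3, h4⟩ := hP.exists_fixed_point_of_prime_dvd_card_of_fixed_point (Y.map D.mkQ)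
    (h2.symm.dvd.trans (addOrderOf_dvd_natCard _)) (a := 0) fun p => Subtype.ext (map_zero (f p))
  refine ⟨w, hw, fun e => h4 (Subtype.ext ((Submodule.Quotient.mk_eq_zero D).2 e).symm), fun p hp => ?_⟩
  rw [← sub_eq]
  exact (Submodule.Quotient.eq D).1 (congrArg Subtype.val (h3 ⟨p, hp⟩)).symm

end Laq

open Laq in
theorem laq : LAQ := by
  intro V _ _ _ q nd P K I D hP hK nK ea ne hID hD iI iD cD hI dI last
  have : Finite (OG q) := Finite.of_injective (fun g => (g.1 : V → V)) fun _ _ e => OG.ext' (congrFun e)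
  have : Module.Finite F V := Module.Finite.of_finite
  have : Finite (V ⧸ I) := Finite.of_surjective _ I.mkQ_surjective
  have tt : ∀ t ∈ K, ∀ v, t.1 (t.1 v) = v := fun t ht v => by rw [← OG.mul_app, ea t ht, OG.one_app]
  obtain ⟨t, ⟨ht, hc⟩, t1⟩ := ne_bot_iff.1 (inf_center_ne_bot_of_nil (nil_of_isPGroup Nat.prime_two hP) hK
    (le_norm_iff.2 nK) ne)
  have ct : ∀ p ∈ P, ∀ v, t.1 (p.1 v) = p.1 (t.1 v) := fun p hp v => by
    rw [← OG.mul_app, ← OG.mul_app, mem_cent.1 hc p hp]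
  let φ : V →ₗ[F] V ⧸ I := I.mkQ ∘ₗ (LinearMap.id + t.1.toLinearMap)
  have kφ : ∀ v, v ∈ LinearMap.ker φ ↔ v + t.1 v ∈ I := fun v => Submodule.Quotient.mk_eq_zero I
  have e0 : LinearMap.ker φ = D := le_antisymm (by
    by_contra h
    obtain ⟨v, h1, h2, h3⟩ := fixed hP iD (fun p hp v hv => (kφ _).2 (by
      rw [ct p hp, ← map_add]; exact iI p hp _ ((kφ v).1 hv))) h
    exact last v h2 h3 t ht t1 ((kφ v).1 h1)) fun v hv => (kφ v).2 (dI t ht v hv)
  have m0 : ∀ {v}, v + t.1 v ∈ I → v ∈ D := fun {v} h => e0.le ((kφ v).2 h)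
  have d0 : ∀ v, v + t.1 v ∈ D := fun v => m0 (by rw [map_add, tt t ht, add_comm (t.1 v), aa]; exact zero_mem _)
  have d1 : ∀ s ∈ K, ∀ v, v + s.1 v ∈ D := fun s hs v => m0 (by
    have := dI s hs _ (d0 v)
    rwa [map_add, ← ct s (hK hs), add_add_add_comm, ← map_add] at this)
  have c1 : Nat.card (D.map I.mkQ) = Nat.card K := by
    have := card_lin (I.mkQ ∘ₗ D.subtype)
    rw [LinearMap.range_comp, Submodule.range_subtype, LinearMap.ker_comp, Submodule.ker_mkQ,
      Nat.card_congr (Submodule.comapSubtypeEquivOfLe hID).toEquiv, cD, mul_comm] at this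
    exact (Nat.eq_of_mul_eq_mul_left Nat.card_pos this).symm
  have c2 := card_lin φ
  rw [e0] at c2
  have c3 : Nat.card (LinearMap.range φ) ≤ Nat.card K := c1 ▸ card_le (by
    rintro _ ⟨v, rfl⟩; exact ⟨_, d0 v, rfl⟩)
  have b0 : ∀ s ∈ K, ∀ x v, polar q (x + s.1 x) v = polar q x (v + s.1 v) := fun s hs x v => by
    rw [polar_add_left, polar_add_right, ← OG.polar_app s (s.1 x), tt s hs]
  have o1 : LinearMap.BilinForm.orthogonal (polarBilin q) D ≤ Fx K := fun x hx s hs => by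
    have : x + s.1 x = 0 := nd.1 _ fun v => by
      rw [polarBilin_apply_apply, b0 s hs, polar_comm]; exact hx _ (d1 s hs v)
    exact add_left_cancel (this.trans (aa x).symm)
  have c4 : Nat.card V = Nat.card D * Nat.card (LinearMap.BilinForm.orthogonal (polarBilin q) D) := by
    rw [Module.natCard_eq_pow_finrank (K := F), Module.natCard_eq_pow_finrank (K := F) (V := D),
      Module.natCard_eq_pow_finrank (K := F) (V := LinearMap.BilinForm.orthogonal (polarBilin q) D),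
      LinearMap.BilinForm.finrank_orthogonal nd, ← pow_add, Nat.add_sub_cancel' D.finrank_le]
  have c5 : Nat.card (LinearMap.range φ) ≤ Nat.card (Fx K) :=
    (Nat.eq_of_mul_eq_mul_left Nat.card_pos (c2.symm.trans c4)).le.trans (card_le o1)
  refine ⟨by rw [c2, cD]; exact Nat.mul_le_mul (Nat.mul_le_mul_left _ (card_le hI)) (le_min c3 c5), fun hT => ?_⟩
  obtain ⟨w, -, w1, w2⟩ := fixed hP iD (Y := ⊤) (fun _ _ _ _ => Submodule.mem_top) fun e => hD (top_le_iff.1 e)
  let j : K → D.map I.mkQ := fun s => ⟨I.mkQ (w + s.1.1 w), _, d1 s s.2 w, rfl⟩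
  have hj : Function.Injective j := fun s s' e => by
    have h1 := iI _ (hK s.2) _ ((Submodule.Quotient.eq I).1 (congrArg Subtype.val e))
    rw [add_sub_add_left_eq_sub, sub_eq, map_add, tt _ s.2, ← OG.mul_app] at h1
    have h2 : s.1 * s'.1 = 1 := by_contra fun h => last w w1 w2 _ (mul_mem s.2 s'.2) h h1
    exact Subtype.ext (mul_left_cancel ((ea _ s.2).trans h2.symm))
  have sj : ∀ d ∈ D, ∃ s ∈ K, ∃ i ∈ I, d = w + s.1 w + i := fun d hd => by
    obtain ⟨s, e⟩ := (hj.bijective_of_nat_card_le c1.le).2 ⟨_, d, hd, rfl⟩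
    exact ⟨s, s.2, _, (Submodule.Quotient.eq I).1 (congrArg Subtype.val e).symm, by abel⟩
  have b1 : ∀ s ∈ K, ∀ i ∈ I, polar q (w + s.1 w) i = 0 := fun s hs i hi => by
    rw [b0 s hs, hI hi s hs, aa, polar_zero_right]
  have b2 : ∀ s ∈ K, ∀ s' ∈ K, polar q (w + s.1 w) (w + s'.1 w) = 0 := fun s hs s' hs' => by
    have h1 := hT _ (mul_mem hs hs') w
    have h2 := dI s hs _ (d1 s' hs' w)
    rw [show w + (s * s').1 w = w + s.1 w + (w + s'.1 w) + (w + s'.1 w + s.1 (w + s'.1 w)) by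
      rw [map_add, OG.mul_app, ← add_assoc, add_assoc (w + s.1 w), aa, add_zero, ← add_assoc, add_assoc w, aa,
        add_zero], map_add', map_add', hT s hs, hT s' hs', hT s hs, polar_add_left q (w + s.1 w), b1 s hs _ h2, b1 s' hs' _ h2] at h1
    simpa using h1
  have o2 : D ≤ Fx K := fun d hd => by
    obtain ⟨s, hs, i, hi, rfl⟩ := sj d hd
    refine add_mem (o1 fun d' hd' => ?_) (hI hi)
    obtain ⟨s', hs', i', hi', rfl⟩ := sj d' hd'
    rw [polarBilin_apply_apply, polar_add_left, b2 s' hs' s hs, polar_comm, b1 s hs i' hi', add_zero]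
  rw [c2, mul_comm]
  exact Nat.mul_le_mul c3 (card_le o2)

end CL.L10
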