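/-
Project L10, part Q: `Q / ⟨z⟩` is weakly and strongly closed.
-/
import Cfsg.Agent.L10.DQ
import Cfsg.Agent.Odd.RelProd

set_option autoImplicit false
set_option linter.unusedSectionVars false

namespace CL.L10

open Cfsg CL.Cls CL.Grp CL.Odd QuadraticMap
open Subgroup (zpowers)
open scoped Pointwise

universe u

namespace Scq

theorem dih {X : Type*} [Group X] [Finite X] {s t : X} (hs : s * s = 1) (ht : t * t = 1) :
    ∃ k : ℕ, (s * t) ^ k * s * ((s * t) ^ k)⁻¹ = t ∨ ((s * t) ^ k ≠ 1 ∧ (s * t) ^ k * (s * t) ^ k = 1 ∧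
      ((s * t) ^ k)⁻¹ * s * (s * t) ^ k = s ∧ ((s * t) ^ k)⁻¹ * t * (s * t) ^ k = t) := by
  have s1 := inv_eq_of_mul_eq_one_right hs
  have t1 := inv_eq_of_mul_eq_one_right ht
  have a : ∀ k : ℕ, s * (s * t) ^ k * s⁻¹ = ((s * t) ^ k)⁻¹ := fun k => by
    rw [← conj_pow, ← inv_pow, ← mul_assoc, hs, one_mul, mul_inv_rev, t1]
  have b : ∀ k : ℕ, t * (s * t) ^ k * t⁻¹ = ((s * t) ^ k)⁻¹ := fun k => by
    rw [← conj_pow, ← inv_pow, mul_inv_rev, s1, ← mul_assoc, mul_inv_cancel_right, t1]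
  have h0 := pow_orderOf_eq_one (s * t)
  have h1 := orderOf_pos (s * t)
  obtain ⟨k, e | e⟩ := Nat.even_or_odd' (orderOf (s * t))
  · rw [e, two_mul, pow_add] at h0
    have h2 := inv_eq_of_mul_eq_one_right h0
    refine ⟨k, .inr ⟨pow_ne_one_of_lt_orderOf (by omega) (by omega), h0, ?_, ?_⟩⟩
    · rw [mul_assoc, mul_inv_eq_iff_eq_mul.1 (a k), ← mul_assoc, h2, h0, one_mul]
    · rw [mul_assoc, mul_inv_eq_iff_eq_mul.1 (b k), ← mul_assoc, h2, h0, one_mul]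
  · rw [e, pow_succ, two_mul, pow_add] at h0
    refine ⟨k, .inl ?_⟩
    have h2 : (s * t) ^ k * (s * t) ^ k * s = t⁻¹ := eq_inv_of_mul_eq_one_left (by rw [← h0]; simp only [mul_assoc])
    rw [← a k, mul_assoc _ s, ← mul_assoc s, ← mul_assoc s, hs, one_mul, s1, ← mul_assoc, h2, t1]

variable {V : Type} [AddCommGroup V] [Module F V] {q : QuadraticForm F V} {G : Type*} [Group G]
  {z : G} {Q S P U W : Subgroup G} {π : G → V} {ρ : KK z Q →* OG q} {a b g t u x y : G}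

/-- the image in `V` -/
def pi (h : QM q z Q π ρ) (U : Subgroup G) : Submodule F V where
  carrier := {v | ∃ a ∈ U ⊓ Q, π a = v}
  add_mem' := by
    rintro _ _ ⟨a, ha, rfl⟩ ⟨b, hb, rfl⟩
    exact ⟨a * b, mul_mem ha hb, h.π_mul ha.2 hb.2⟩
  zero_mem' := ⟨1, one_mem _, h.π_one⟩
  smul_mem' c v hv := by
    rcases (by decide : ∀ c : F, c = 0 ∨ c = 1) c with rfl | rfl
    exacts [⟨1, one_mem _, h.π_one.trans (zero_smul _ _).symm⟩, by rwa [one_smul]]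

/-- `U` satisfies the claim -/
def Good (z : G) (Q S U : Subgroup G) : Prop := ∀ g ∈ C1[z], cj g • U ≤ S → cj g • (U ⊓ Q) ≤ Q

theorem z_cj (hg : g ∈ C1[z]) (hz : z ∈ U) : z ∈ cj g • U := mem_c1_iff_conj.1 hg ▸ conj_mem_cj.2 hz

theorem tr {n : ℕ} (ih : ∀ U, z ∈ U → U ≤ S → n < Nat.card U → Good z Q S U) (hz : z ∈ U) (hU : U ≤ S)
    (hc : n < Nat.card U) (hg : g ∈ C1[z]) (h1 : cj g • U ≤ S) (hW : W ≤ U) : cj g • (W ⊓ Q) = cj g • W ⊓ Q :=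
  le_antisymm (le_inf (cj_mono g inf_le_left) ((cj_mono g (inf_le_inf_right _ hW)).trans (ih U hz hU hc g hg h1)))
    (le_cj_iff_cj_inv_le.2 (le_inf ((cj_mono _ inf_le_left).trans (cj_inv_cj g W).le)
      ((cj_mono _ (inf_le_inf_right _ (cj_mono g hW))).trans (ih _ (z_cj hg hz) h1 (card_cj g U ▸ hc) g⁻¹
        (inv_mem hg) ((cj_inv_cj g U).le.trans hU)))))

variable (h : QM q z Q π ρ)
include h

theorem mem_pi (hz : z ∈ U) (ha : a ∈ Q) : π a ∈ pi h U ↔ a ∈ U :=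
  ⟨fun ⟨_, hb, e⟩ => (h.π_eq ha hb.2 e.symm).elim (fun e => e ▸ hb.1) fun e => e ▸ mul_mem hb.1 hz,
    fun k => ⟨a, ⟨k, ha⟩, rfl⟩⟩

theorem add_rho (c : KK z Q) (ha : a ∈ Q) : π a + (ρ c).1 (π a) = π (c * a * (c : G)⁻¹ * a⁻¹) := by
  rw [h.π_mul (h.conj_mem c ha) (inv_mem ha), h.π_inv ha, h.π_conj c ha, add_comm]

theorem cm (hg : g ∈ C1[z]) (ha : a ∈ cj g • Q) (hb : b ∈ cj g • Q) :
    a * b * a⁻¹ * b⁻¹ = 1 ∨ a * b * a⁻¹ * b⁻¹ = z := by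
  obtain ⟨a, a1, rfl⟩ := mem_cj_iff_exists.1 ha
  obtain ⟨b, b1, rfl⟩ := mem_cj_iff_exists.1 hb
  have m := mul_mem (mul_mem a1 b1) (inv_mem a1)
  have := (h.π_zero (mul_mem m (inv_mem b1))).1 (by
    rw [h.π_mul m (inv_mem b1), h.π_mul (mul_mem a1 b1) (inv_mem a1), h.π_mul a1 b1, h.π_inv a1, h.π_inv b1,
      add_right_comm (π a), h.aa, zero_add, h.aa])
  rw [show g * a * g⁻¹ * (g * b * g⁻¹) * (g * a * g⁻¹)⁻¹ * (g * b * g⁻¹)⁻¹ = g * (a * b * a⁻¹ * b⁻¹) * g⁻¹ by group]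
  exact this.imp (fun e => by rw [e]; group) fun e => by rw [e, mem_c1_iff_conj.1 hg]

theorem sq (hg : g ∈ C1[z]) (ha : a ∈ cj g • Q) (hz : z ∈ U) : a * a ∈ U := by
  obtain ⟨a, a1, rfl⟩ := mem_cj_iff_exists.1 ha
  rw [conj_mul]
  rcases (h.π_zero (mul_mem a1 a1)).1 (by rw [h.π_mul a1 a1, h.aa]) with e | e
  · simp [e]
  · rwa [e, mem_c1_iff_conj.1 hg]

theorem cm' (hg : g ∈ C1[z]) (ha : a ∈ cj g • Q) (hb : b ∈ cj g • Q) (hz : z ∈ U) : a * b * a⁻¹ * b⁻¹ ∈ U :=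
  (cm h hg ha hb).elim (fun e => e ▸ one_mem _) fun e => e ▸ hz

theorem fix (hg : g ∈ C1[z]) (c : KK z Q) (hc : (c : G) ∈ cj g • Q) (ha : a ∈ Q) (ha' : a ∈ cj g • Q) :
    (ρ c).1 (π a) = π a := by
  have : π a + (ρ c).1 (π a) = 0 := by
    rw [add_rho h c ha]
    exact (cm h hg hc ha').elim (fun e => e.symm ▸ h.π_one) fun e => e.symm ▸ h.π_z
  exact add_left_cancel (this.trans (h.aa _).symm)

theorem rho_Q (c : KK z Q) (hc : (c : G) ∈ Q) : ρ c = 1 := OG.ext' fun v => by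
  obtain ⟨a, ha, rfl⟩ := h.surj v
  exact fix h (one_mem _) c (by rwa [cj_one]) ha (by rwa [cj_one])

theorem ea (hg : g ∈ C1[z]) (hU : U ≤ cj g • Q) : EA (im ρ U) := by
  rintro _ ⟨c, hc, rfl⟩
  rw [← map_mul]
  exact rho_Q h _ (sq h hg (hU hc) h.zQ)

theorem le_fx (hg : g ∈ C1[z]) (hU : U ≤ cj g • Q) (hW : W ≤ U) : pi h W ≤ Fx (im ρ U) := by
  rintro _ ⟨a, ha, rfl⟩ _ ⟨c, hc, rfl⟩
  exact fix h hg c (hU hc) ha.2 (hU (hW ha.1))

theorem card_pi (hz : z ∈ U) (hU : U ≤ Q) : Nat.card U = 2 * Nat.card (pi h U) := by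
  let f : Q →* Multiplicative V := MonoidHom.mk' (fun a => Multiplicative.ofAdd (π a)) fun a b =>
    congrArg Multiplicative.ofAdd (h.π_mul a.2 b.2)
  have := Fact.mk Nat.prime_two
  have e : f.ker ⊓ U.subgroupOf Q = zpowers ⟨z, h.zQ⟩ := le_antisymm (fun a ha => by
    rcases (h.π_zero a.2).1 ha.1 with e | e
    exacts [(Subtype.ext e : a = 1) ▸ one_mem _, (Subtype.ext e : a = ⟨z, h.zQ⟩) ▸ Subgroup.mem_zpowers _])
    (Subgroup.zpowers_le.2 ⟨h.π_z, hz⟩)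
  rw [← Nat.card_congr (Subgroup.subgroupOfEquivOfLe hU).toEquiv, card_eq_card_inf_ker_mul_card_map f, e,
    Nat.card_zpowers, orderOf_eq_prime (Subtype.ext (by rw [pow_two]; exact h.zz))
      fun e => h.z1 (congrArg Subtype.val e)]
  exact congrArg (2 * ·) (Nat.card_congr (Equiv.subtypeEquiv Multiplicative.toAdd fun v =>
    ⟨fun ⟨a, ha, e⟩ => ⟨a, ⟨ha, a.2⟩, congrArg Multiplicative.toAdd e⟩,
      fun ⟨a, ha, e⟩ => ⟨⟨a, ha.2⟩, ha.1, congrArg Multiplicative.ofAdd e⟩⟩))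

variable (hK : S ≤ KK z Q) (hk : ∀ c : KK z Q, (c : G) ∈ S → ρ c = 1 → (c : G) ∈ Q)
include hK hk

theorem card_im (hU : U ≤ S) : Nat.card U = Nat.card ↥(U ⊓ Q) * Nat.card (im ρ U) := by
  have e : ρ.ker ⊓ U.subgroupOf (KK z Q) = (U ⊓ Q).subgroupOf (KK z Q) :=
    le_antisymm (fun c hc => ⟨hc.2, hk c (hU hc.2) hc.1⟩) fun c hc => ⟨rho_Q h c hc.2, hc.1⟩
  rw [← Nat.card_congr (Subgroup.subgroupOfEquivOfLe (hU.trans hK)).toEquiv, card_eq_card_inf_ker_mul_card_map ρ, e,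
    Nat.card_congr (Subgroup.subgroupOfEquivOfLe (inf_le_left.trans (hU.trans hK))).toEquiv, im]

theorem le_of_im (hU : U ≤ S) (e : im ρ U = ⊥) : U ≤ Q := fun a ha =>
  hk ⟨a, hK (hU ha)⟩ (hU ha) (Subgroup.mem_bot.1 (e.le ⟨_, ha, rfl⟩))

omit h hK hk in
theorem im_mono (hU : U ≤ W) : im ρ U ≤ im ρ W := Subgroup.map_mono (Subgroup.comap_mono hU)

variable [Finite V] [Finite G] (r : RF (im ρ S))
include r

theorem wc (hg : g ∈ C1[z]) (h1 : cj g • Q ≤ S) : cj g • Q ≤ Q := le_of_im h hK hk h1 (by_contra fun e => by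
  have h2 := r.h1 _ (im_mono h1) (ea h hg le_rfl) e
  have h3 := card_im h hK hk h1
  have h4 : pi h Q = ⊤ := top_le_iff.1 fun v _ => let ⟨a, ha, e⟩ := h.surj v; ⟨a, ⟨ha, ha⟩, e⟩
  rw [card_cj, card_pi h h.zQ le_rfl, h4, card_pi h (U := cj g • Q ⊓ Q) ⟨z_cj hg h.zQ, h.zQ⟩ inf_le_right,
    Nat.card_congr Submodule.topEquiv.toEquiv, mul_assoc, mul_comm (Nat.card (pi h _))] at h3
  have h5 : Nat.card (pi h (cj g • Q ⊓ Q)) ≤ Nat.card (Fx (im ρ (cj g • Q))) :=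
    Nat.card_le_card_of_injective _ (Submodule.inclusion_injective (le_fx h hg le_rfl inf_le_left))
  have := Nat.mul_le_mul_left (Nat.card (im ρ (cj g • Q))) h5
  omega)

variable (hS : IsSylowIn 2 S C1[z]) (hQ : Q ≤ S) (hP : P ≤ S) (hz : z ∈ P)
  (syl : IsSylowIn 2 (S ⊓ N[P]) (C1[z] ⊓ N[P])) (ih : ∀ U, z ∈ U → U ≤ S → Nat.card P < Nat.card U → Good z Q S U)
include hS hQ hP hz syl ih

omit h hk r hQ in
theorem se (hy : y ∈ C1[z] ⊓ N[P]) (hu : u ∈ C1[z] ⊓ N[P] ⊓ N[(P ⊓ Q : Subgroup G)])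
    (hu' : y⁻¹ * u * y ∈ N[(P ⊓ Q : Subgroup G)]) (h1 : u ∉ P) (h2 : u * u ∈ P) : y ∈ N[(P ⊓ Q : Subgroup G)] := by
  have := Fact.mk Nat.prime_two
  have sH : S ⊓ N[P] ≤ C1[z] ⊓ N[P] ⊓ N[(P ⊓ Q : Subgroup G)] :=
    le_inf syl.1 (le_norm_inf inf_le_right (inf_le_left.trans (hK.trans inf_le_right)))
  have pP := hS.2.1.to_le hP
  have ex : ∀ u ∈ C1[z] ⊓ N[P] ⊓ N[(P ⊓ Q : Subgroup G)], u * u ∈ P →
      ∃ a ∈ C1[z] ⊓ N[P] ⊓ N[(P ⊓ Q : Subgroup G)], cj a • (P ⊔ zpowers u) ≤ S ⊓ N[P] := fun u hu h2 => by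
    obtain ⟨k, e⟩ := pP ⟨_, h2⟩
    exact (syl.of_le sH inf_le_left).exists_conj_le (isPGroup_sup pP (CL.Even.isPGroup_zpowers (k := k + 1) (by
      rw [pow_succ', pow_mul, pow_two]; exact congrArg Subtype.val e)) (Subgroup.zpowers_le.2 hu.1.2))
      (sup_le ((le_inf hP (le_norm_self P)).trans sH) (Subgroup.zpowers_le.2 hu))
  obtain ⟨a, ha, e1⟩ := ex u hu h2
  obtain ⟨b, hb, e2⟩ := ex (y⁻¹ * u * y)
    ⟨(mul_mem (mul_mem (inv_mem hy) hu.1) hy : _ ∈ C1[z] ⊓ N[P]), hu'⟩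
    (by simpa [mul_assoc] using conj_mem_of_norm' hy.2 h2)
  rw [Subgroup.mem_inf] at ha hb
  have m := mul_mem (mul_mem hb.1 (inv_mem hy)) (inv_mem ha.1)
  have h3 : P ≤ cj a • (P ⊔ zpowers u) := (cj_eq_self ha.1.2).ge.trans (cj_mono a le_sup_left)
  have h4 := tr ih (h3 hz) (e1.trans inf_le_left) (by
    rw [card_cj]
    exact card_lt_card_of_lt (le_sup_left.lt_of_ne fun e => h1 (e.ge (Subgroup.mem_sup_right
      (Subgroup.mem_zpowers u))))) m.1 (by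
    rw [cj_mul, cj_inv_cj, cj_mul, cj_sup y⁻¹, cj_eq_self (inv_mem hy.2), cj_zpowers, inv_inv]
    exact e2.trans inf_le_left) h3
  rw [cj_eq_self m.2, cj_eq_self_iff] at h4
  simpa [mul_assoc] using inv_mem (mul_mem (mul_mem (inv_mem hb.2) h4) ha.2)

omit hk r hQ in
theorem key (hg : g ∈ C1[z] ⊓ N[P]) (hg' : g ∉ N[(P ⊓ Q : Subgroup G)]) (hb : b ∈ Q) (hn : b ∈ N[P]) (h1 : b ∉ P)
    (ht : t ∈ cj g • (P ⊓ Q)) (h2 : b * t * b⁻¹ * t⁻¹ ∈ P ⊓ Q ⊓ cj g • (P ⊓ Q)) : t ∈ Q := by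
  have bN : b ∈ C1[z] ⊓ N[P] := ⟨(h.le_KK hb).1, hn⟩
  have bD : b ∈ N[(P ⊓ Q : Subgroup G)] :=
    le_norm_inf inf_le_right (le_norm_of_le inf_le_left) (⟨hb, hn⟩ : b ∈ Q ⊓ N[P])
  have pH : P ≤ N[(P ⊓ Q : Subgroup G)] := le_norm_inf (le_norm_self P) (hP.trans (hK.trans inf_le_right))
  have b1 : b ∈ cj (1 : G) • Q := by rwa [cj_one]
  have b2 := sq h (one_mem _) b1 hz
  have b3 : g * b * g⁻¹ ∈ cj g • Q := conj_mem_cj.2 hb
  have m := mul_mem (mul_mem hg bN) (inv_mem hg)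
  have c : ∀ {x y}, x ∈ C1[z] ⊓ N[P] → y ∈ C1[z] ⊓ N[P] → coset P (x * y) = coset P x * coset P y :=
    fun hx hy => coset_mul hx.2 hy.2
  have c' : ∀ {x}, x ∈ C1[z] ⊓ N[P] → coset P x⁻¹ = (coset P x)⁻¹ := fun hx => coset_inv hx.2
  have SE : ∀ y ∈ C1[z] ⊓ N[P], (coset P y)⁻¹ * coset P b * coset P y = coset P b → y ∈ N[(P ⊓ Q : Subgroup G)] :=
    fun y hy e => se hK hS hP hz syl ih hy ⟨bN, bD⟩ (by
      have m := mul_mem (inv_mem hy) bN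
      rw [← c' hy, ← c (inv_mem hy) bN, ← c m hy] at e
      simpa using mul_mem bD (pH ((coset_eq_iff hn (mul_mem m hy).2).1 e.symm))) h1 b2
  obtain ⟨k, hk⟩ := dih (s := coset P b) (t := coset P (g * b * g⁻¹))
    (by rw [← c bN bN]; exact coset_eq_one b2) (by rw [← c m m]; exact coset_eq_one (sq h hg.1 b3 hz))
  have w1 := pow_mem (mul_mem bN m) k
  rw [← c bN m, ← coset_pow (mul_mem bN m).2, coset_conj hg.2 hn] at hk
  have zI : z ∈ P ⊓ Q ⊓ cj g • (P ⊓ Q) := ⟨⟨hz, h.zQ⟩, z_cj hg.1 (U := P ⊓ Q) ⟨hz, h.zQ⟩⟩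
  have hw : (b * (g * b * g⁻¹)) ^ k ∈ N[(P ⊓ Q ⊓ cj g • (P ⊓ Q) : Subgroup G)] ∧
      (b * (g * b * g⁻¹)) ^ k * t * ((b * (g * b * g⁻¹)) ^ k)⁻¹ * t⁻¹ ∈ P ⊓ Q ⊓ cj g • (P ⊓ Q) := by
    let M : Submonoid G :=
      { carrier := {x | x ∈ N[(P ⊓ Q ⊓ cj g • (P ⊓ Q) : Subgroup G)] ∧ x * t * x⁻¹ * t⁻¹ ∈ P ⊓ Q ⊓ cj g • (P ⊓ Q)}
        one_mem' := ⟨one_mem _, by simp only [one_mul, inv_one, mul_one, mul_inv_cancel, one_mem]⟩
        mul_mem' := fun {x y} hx hy => ⟨mul_mem hx.1 hy.1, by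
          simpa only [mul_assoc, mul_inv_rev, inv_mul_cancel_left] using mul_mem (conj_mem_of_norm hx.1 hy.2) hx.2⟩ }
    have n : ∀ {x g'}, g' ∈ C1[z] → x ∈ cj g' • Q → P ⊓ Q ⊓ cj g • (P ⊓ Q) ≤ cj g' • Q →
        x ∈ N[(P ⊓ Q ⊓ cj g • (P ⊓ Q) : Subgroup G)] := fun hg hx hI =>
      mem_norm_of_cj_le ((conj_smul_le_iff _ _ _).2 fun i hi => by
        simpa only [inv_mul_cancel_right] using mul_mem (cm' h hg hx (hI hi) zI) hi)
    exact M.pow_mem (M.mul_mem ⟨n (one_mem _) b1 (by rw [cj_one]; exact inf_le_left.trans inf_le_right), h2⟩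
      ⟨n hg.1 b3 (inf_le_right.trans (cj_mono g inf_le_right)), cm' h hg.1 b3 (cj_mono g inf_le_right ht) zI⟩) k
  generalize (b * (g * b * g⁻¹)) ^ k = w at hk w1 hw
  rcases hk with e | ⟨e1, e2, e3, e4⟩
  · have h3 := cj_eq_self (SE _ (mul_mem (inv_mem w1) hg) (by
      rw [c (inv_mem w1) hg, c' w1]
      calc _ = (coset P g)⁻¹ * (coset P w * coset P b * (coset P w)⁻¹) * coset P g := by group
        _ = _ := by rw [e]; group))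
    rw [cj_mul] at h3
    have h4 : w⁻¹ * t * w ∈ P ⊓ Q := h3.le (by simpa using (conj_mem_cj (g := w⁻¹)).2 ht)
    simpa [mul_assoc] using Q.mul_mem (conj_mem_of_norm' hw.1 hw.2).1.2 h4.2
  · have m' := mul_mem (mul_mem (inv_mem hg) w1) hg
    exact (hg' (se hK hS hP hz syl ih hg ⟨w1, SE w w1 e3⟩ (SE _ m' (by
      rw [c (mul_mem (inv_mem hg) w1) hg, c (inv_mem hg) w1, c' hg]
      calc _ = (coset P g)⁻¹ * ((coset P w)⁻¹ * (coset P g * coset P b * (coset P g)⁻¹) * coset P w) * coset P g := by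
            group
        _ = _ := by rw [e4]; group)) (fun e => e1 (coset_eq_one e))
      ((coset_eq_one_iff (mul_mem w1 w1).2).1 ((c w1 w1).trans e2)))).elim

theorem nrm (hL : LAQ) (h0 : ¬ Q ≤ P) (hg : g ∈ C1[z] ⊓ N[P]) : g ∈ N[(P ⊓ Q : Subgroup G)] := by
  by_contra hg'
  have pH : P ≤ N[(P ⊓ Q : Subgroup G)] := le_norm_inf (le_norm_self P) (hP.trans (hK.trans inf_le_right))
  have d1 : cj g • (P ⊓ Q) ≤ P := cj_le_of_mem_norm inf_le_left hg.2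
  have d2 : cj g • (P ⊓ Q) ≤ cj g • Q := cj_mono g inf_le_right
  have pH' : P ≤ N[cj g • (P ⊓ Q)] := by
    rw [← cj_normalizer]; exact (cj_eq_self hg.2).ge.trans (cj_mono g pH)
  have zD : z ∈ P ⊓ Q := ⟨hz, h.zQ⟩
  have zI : z ∈ P ⊓ Q ⊓ cj g • (P ⊓ Q) := ⟨zD, z_cj hg.1 zD⟩
  have ne : im ρ (cj g • (P ⊓ Q)) ≠ ⊥ := fun e =>
    hg' (mem_norm_of_cj_le (le_inf d1 (le_of_im h hK hk (d1.trans hP) e)))
  have inv : ∀ {U}, P ≤ N[U] → ∀ p ∈ im ρ P, ∀ v ∈ pi h U, p.1 v ∈ pi h U := by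
    rintro U hU _ ⟨c, hc, rfl⟩ _ ⟨a, ha, rfl⟩
    exact ⟨_, ⟨conj_mem_of_norm (hU hc) ha.1, h.conj_mem c ha.2⟩, h.π_conj c ha.2⟩
  have cQ : ∀ (c : KK z Q) {a}, a ∈ Q → c * a * (c : G)⁻¹ * a⁻¹ ∈ Q := fun c a ha =>
    mul_mem (h.conj_mem c ha) (inv_mem ha)
  obtain ⟨k1, k2⟩ := hL V q h.nd (im ρ P) (im ρ (cj g • (P ⊓ Q))) (pi h (P ⊓ Q ⊓ cj g • (P ⊓ Q))) (pi h (P ⊓ Q))
    (((hS.2.1.to_le hP).comap_subtype (K := KK z Q)).map ρ) (im_mono d1)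
    (by
      rintro _ ⟨c, hc, rfl⟩ _ ⟨d, hd, rfl⟩
      exact ⟨c * d * c⁻¹, conj_mem_of_norm (G := G) (pH' hc) hd, by rw [map_mul, map_mul, map_inv]⟩)
    (ea h hg.1 d2) ne (fun _ ⟨a, ha, e⟩ => ⟨a, ⟨ha.1.1, ha.2⟩, e⟩)
    (fun e => h0 fun a ha => ((mem_pi h zD ha).1 (e.ge Submodule.mem_top)).1)
    (inv (le_norm_inf pH pH')) (inv pH)
    (by
      have e := card_im h hK hk (d1.trans hP)
      rw [card_cj, card_pi h zD inf_le_right, show cj g • (P ⊓ Q) ⊓ Q = P ⊓ Q ⊓ cj g • (P ⊓ Q) from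
        le_antisymm (le_inf (inf_le_inf_right _ d1) inf_le_left) (le_inf inf_le_right (inf_le_left.trans inf_le_right)),
        card_pi h zI (inf_le_left.trans inf_le_right), mul_assoc] at e
      rw [mul_comm]; omega)
    (le_fx h hg.1 d2 inf_le_right)
    (by
      rintro _ ⟨c, hc, rfl⟩ _ ⟨a, ha, rfl⟩
      rw [add_rho h c ha.2, mem_pi h zI (cQ c ha.2)]
      refine ⟨(P ⊓ Q).mul_mem (conj_mem_of_norm (pH (d1 hc)) ha.1) ((P ⊓ Q).inv_mem ha.1), ?_⟩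
      have := (cj g • (P ⊓ Q)).mul_mem hc (conj_mem_of_norm (pH' ha.1.1) ((cj g • (P ⊓ Q)).inv_mem hc))
      simp only [← mul_assoc] at this
      exact this)
    (by
      rintro v h1 h2 _ ⟨c, hc, rfl⟩ h3 h4
      obtain ⟨b, hb, rfl⟩ := h.surj v
      rw [add_rho h c hb, mem_pi h zI (cQ c hb)] at h4
      refine h3 (rho_Q h c (key h hK hS hP hz syl ih hg hg' hb (mem_norm_of_cj_le ((conj_smul_le_iff _ _ _).2
        fun p hp => ?_)) (fun e => h1 ⟨b, ⟨⟨e, hb⟩, hb⟩, rfl⟩) hc (by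
          simpa only [mul_inv_rev, inv_inv, mul_assoc] using inv_mem h4)))
      have h5 := h2 _ ⟨⟨p, hK (hP hp)⟩, hp, rfl⟩
      rw [add_rho h _ hb, mem_pi h zD (cQ _ hb)] at h5
      simpa [mul_assoc] using P.mul_mem (P.inv_mem h5.1) hp)
  rcases r.h2 _ (im_mono (d1.trans hP)) (ea h hg.1 d2) ne with e | e
  · exact (r.h1 _ (im_mono (d1.trans hP)) (ea h hg.1 d2) ne).not_ge (k2 e)
  · exact e.not_ge k1

omit hP hz syl ih in
theorem good (hL : LAQ) (hz : z ∈ U) (hU : U ≤ S) : Good z Q S U := by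
  have := Fact.mk Nat.prime_two
  induction hn : Nat.card S - Nat.card U using Nat.strong_induction_on generalizing U with
  | _ n IH =>
  have ih : ∀ W, z ∈ W → W ≤ S → Nat.card U < Nat.card W → Good z Q S W := fun W h1 h2 h3 =>
    IH _ (by have := Subgroup.card_le_of_le h2; omega) h1 h2 rfl
  by_cases h0 : Q ≤ U
  · exact fun g hg h1 => (cj_mono g inf_le_right).trans (wc h hK hk r hg ((cj_mono g h0).trans h1))
  have nq : ∀ g ∈ C1[z], ¬ Q ≤ cj g • U := fun g hg e => h0 (by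
    have h1 := le_cj_iff_cj_inv_le.1 e
    rwa [cj_eq_self (mem_norm_of_cj_le (wc h hK hk r (inv_mem hg) (h1.trans hU)))] at h1)
  obtain ⟨T, hT, h1⟩ := exists_isSylowIn_ge (hS.2.1.to_le hU) (le_inf (hU.trans hS.1) (le_norm_self U))
  obtain ⟨x, hx, h2⟩ := hS.exists_conj_le hT.2.1 (hT.1.trans inf_le_left)
  have h3 : IsSylowIn 2 (cj x • T) (C1[z] ⊓ N[cj x • U]) := by
    have := hT.conj_smul x
    rwa [cj_inf, cj_eq_self_of_mem hx, cj_normalizer] at this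
  have syl : IsSylowIn 2 (S ⊓ N[cj x • U]) (C1[z] ⊓ N[cj x • U]) :=
    h3.eq_of_le hS.2.1.to_inf_left (le_inf h2 (h3.1.trans inf_le_right)) (inf_le_inf_right _ hS.1) ▸ h3
  have ex : ∀ g ∈ C1[z], cj g • U ≤ S → ∃ y ∈ C1[z], cj y • U = cj x • U ∧
      cj (y * g⁻¹) • (cj g • U ⊓ Q) = cj x • U ⊓ Q := fun g hg h4 => by
    obtain ⟨a, ha, h5⟩ := syl.exists_conj_le (U := cj (x * g⁻¹) • (S ⊓ N[cj g • U]))
      (isPGroup_cj.2 hS.2.1.to_inf_left) (by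
        rw [cj_inf, cj_normalizer, ← cj_mul, inv_mul_cancel_right]
        exact inf_le_inf_right _ (cj_le_of_mem hS.1 (mul_mem hx (inv_mem hg))))
    have h6 := lt_inf_normalizer_of_isPGroup hS.2.1 (h4.lt_of_ne fun e => nq g hg (hQ.trans e.ge))
    have h7 : cj (a * x) • U = cj x • U := by rw [cj_mul, cj_eq_self ha.2]
    have m : a * x ∈ C1[z] := mul_mem ha.1 hx
    refine ⟨a * x, m, h7, ?_⟩
    rw [tr ih (h6.le (z_cj hg hz)) inf_le_left (card_cj g U ▸ card_lt_card_of_lt h6) (mul_mem m (inv_mem hg))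
      (by rw [mul_assoc, cj_mul]; exact h5.trans inf_le_left) h6.le, ← cj_mul, inv_mul_cancel_right, h7]
  intro g hg h4
  obtain ⟨y, y1, y2, y3⟩ := ex 1 (one_mem _) (by rwa [cj_one])
  obtain ⟨w, w1, w2, w3⟩ := ex g hg h4
  rw [cj_one, inv_one, mul_one] at y3
  have h5 := cj_eq_self (nrm h hK hk r hS hQ ((cj_mono x h1).trans h2) (z_cj hx hz) syl
    (fun W a b c => ih W a b (card_cj x U ▸ c)) hL (nq x hx) (g := w * y⁻¹) ⟨(mul_mem w1 (inv_mem y1) : _ ∈ C1[z]),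
      cj_eq_self_iff.1 (by rw [cj_mul, ← y2, cj_inv_cj, w2, y2])⟩)
  conv_lhs at h5 => rw [← y3, ← cj_mul, inv_mul_cancel_right, ← inv_mul_cancel_right w g, cj_mul]
  exact (cj_inj.1 (h5.trans w3.symm)).le.trans inf_le_right

end Scq

theorem wcq : WCQ.{u} := fun _ _ _ _ _ _ _ _ _ _ _ _ _ h hK hk r g hg h1 _ ha =>
  Scq.wc h hK hk r (mem_c1_iff_conj.2 hg) ((conj_smul_le_iff g _ _).2 h1) (conj_mem_cj.2 ha)

theorem scq (hL : LAQ) : SCQ.{u} := fun _ _ _ _ _ _ _ _ z Q _ _ _ h hS hQ hK hk r g hg a ha h1 => by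
  have hz := Subgroup.zpowers_le.2 h.zQ
  have h2 := Subgroup.zpowers_le.2 ha
  refine Scq.good h hK hk r hS hQ hL (U := zpowers a ⊔ zpowers z) (Subgroup.mem_sup_right (Subgroup.mem_zpowers z))
    ((sup_le h2 hz).trans hQ) g (mem_c1_iff_conj.2 hg) ?_
    (conj_mem_cj.2 ⟨Subgroup.mem_sup_left (Subgroup.mem_zpowers a), ha⟩)
  rw [cj_sup, cj_zpowers, cj_zpowers, hg]
  exact sup_le (Subgroup.zpowers_le.2 h1) (hz.trans hQ)

end CL.L10
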